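import Cfsg.Agent.Lib.Helper70.SpRow.QA1

set_option autoImplicit false

namespace Cfsg.Agent.Lib.Helper70.SpRow

open Cfsg Cfsg.Geo Matrix Cfsg.Agent.Lib.Helper94.SpRow
open scoped MatrixGroups

variable {F : Type*} [Field F]

theorem sf_rat (F₀ : Subfield F) {u v : Fin 2 ⊕ Fin 2 → F} (hu : ∀ i, u i ∈ F₀)
    (hv : ∀ i, v i ∈ F₀) : sympForm 2 F u v ∈ F₀ := by
  rw [sf_four]
  exact sub_mem (sub_mem (add_mem (mul_mem (hu _) (hv _)) (mul_mem (hu _) (hv _)))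
    (mul_mem (hu _) (hv _))) (mul_mem (hu _) (hv _))

theorem single_rat (F₀ : Subfield F) (j i : Fin 2 ⊕ Fin 2) :
    (Pi.single j 1 : Fin 2 ⊕ Fin 2 → F) i ∈ F₀ := by
  rw [Pi.single_apply]
  split_ifs
  · exact one_mem _
  · exact zero_mem _

theorem tvG_rat (F₀ : Subfield F) (v : Fin 2 ⊕ Fin 2 → F) (hv : ∀ i, v i ∈ F₀) (c : F)
    (hc : c ∈ F₀) : tvG v c ∈ subfieldSubgroup F₀ (1 : GL (Fin 2 ⊕ Fin 2) F) := by
  apply mem_subfield_one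
  intro i j
  have h1 : ((tvG v c : GL (Fin 2 ⊕ Fin 2) F) : Matrix _ _ F) i j
      = (((tvG v c : GL (Fin 2 ⊕ Fin 2) F) : Matrix _ _ F) *ᵥ Pi.single j 1) i := by
    rw [Matrix.mulVec_single_one, Matrix.col_apply]
  rw [h1, tvG_mulVec]
  simp only [Pi.add_apply, Pi.smul_apply, smul_eq_mul]
  exact add_mem (single_rat F₀ j i)
    (mul_mem (mul_mem hc (sf_rat F₀ (single_rat F₀ j) hv)) (hv i))

theorem U3_rat (F₀ : Subfield F) (u p : Fin 2 ⊕ Fin 2 → F) (hu : ∀ i, u i ∈ F₀) (hp : ∀ i, p i ∈ F₀)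
    (x y z : F) (hx : x ∈ F₀) (hy : y ∈ F₀) (hz : z ∈ F₀) :
    U3 u p x y z ∈ subfieldSubgroup F₀ (1 : GL (Fin 2 ⊕ Fin 2) F) ⊓ spGL 2 F := by
  refine Subgroup.mem_inf.2 ⟨?_, U3_mem u p x y z⟩
  unfold U3
  exact mul_mem (mul_mem (tvG_rat F₀ u hu _ (sub_mem hx hy)) (tvG_rat F₀ p hp _ (sub_mem hz hy)))
    (tvG_rat F₀ (u + p) (fun i => add_mem (hu i) (hp i)) y hy)

end Cfsg.Agent.Lib.Helper70.SpRow
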