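import Cfsg.Agent.Lib.Helper94.SpRow.Defs4
import Cfsg.Agent.Lib.Helper99.SubfieldGrp

set_option autoImplicit false

namespace Cfsg.Agent.Lib.Helper70.SpRow

open Cfsg Cfsg.Geo Matrix Cfsg.Agent.Lib.Helper94.SpRow
open scoped MatrixGroups

variable {F : Type*} [Field F]

theorem mem_subfield_one (F₀ : Subfield F) (g : GL (Fin 2 ⊕ Fin 2) F)
    (h : ∀ i j, (g : Matrix (Fin 2 ⊕ Fin 2) (Fin 2 ⊕ Fin 2) F) i j ∈ F₀) : g ∈ subfieldSubgroup F₀ (1 : GL (Fin 2 ⊕ Fin 2) F) := by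
  rw [Cfsg.Agent.Lib.Helper99.mem_subfieldSubgroup_iff]
  refine ⟨1, one_ne_zero, fun i j => ?_⟩
  rw [one_smul, inv_one, one_mul, mul_one]
  exact h i j

end Cfsg.Agent.Lib.Helper70.SpRow
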