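import Cfsg.Agent.Lib.Helper70.SpRow.QA2

set_option autoImplicit false

namespace Cfsg.Agent.Lib.Helper70.SpRow

open Cfsg Cfsg.Geo Matrix Cfsg.Agent.Lib.Helper94.SpRow
open scoped MatrixGroups

variable {F : Type*} [Field F]

theorem tvG_rat' (F₀ : Subfield F) (v : Fin 2 ⊕ Fin 2 → F) (hv : ∀ i, v i ∈ F₀) (c : F)
    (hc : c ∈ F₀) : tvG v c ∈ subfieldSubgroup F₀ (1 : GL (Fin 2 ⊕ Fin 2) F) ⊓ spGL 2 F :=
  Subgroup.mem_inf.2 ⟨tvG_rat F₀ v hv c hc, tvG_mem v c⟩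

/-- `n1 = t_{e1} t_{f1} t_{e1}` maps `f1` to `e1`. -/
theorem n1_f1 : ((tvG (e1 F) 1 * tvG (f1 F) 1 * tvG (e1 F) 1 : GL (Fin 2 ⊕ Fin 2) F) :
    Matrix _ _ F) *ᵥ f1 F = e1 F := by
  rw [Units.val_mul, Units.val_mul, ← Matrix.mulVec_mulVec, ← Matrix.mulVec_mulVec, tvG_mulVec,
    tvG_mulVec, tvG_mulVec]
  simp only [sf_four]
  ext i
  rcases i with i | i <;> fin_cases i <;> simp [e1, f1]

theorem n2_f2 : ((tvG (e2 F) 1 * tvG (f2 F) 1 * tvG (e2 F) 1 : GL (Fin 2 ⊕ Fin 2) F) :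
    Matrix _ _ F) *ᵥ f2 F = e2 F := by
  rw [Units.val_mul, Units.val_mul, ← Matrix.mulVec_mulVec, ← Matrix.mulVec_mulVec, tvG_mulVec,
    tvG_mulVec, tvG_mulVec]
  simp only [sf_four]
  ext i
  rcases i with i | i <;> fin_cases i <;> simp [e2, f2]

theorem sf_e1_f2 : sympForm 2 F (e1 F) (f2 F) = 0 := by
  rw [sf_four]; simp [e1, f2]

theorem sf_e2_f1 : sympForm 2 F (e2 F) (f1 F) = 0 := by
  rw [sf_four]; simp [e2, f1]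

theorem o_e2 (h2 : (2 : F) = 0) :
    ((U3 (e2 F) (f1 F) 0 1 0 * U3 (e1 F) (f2 F) 0 1 0 : GL (Fin 2 ⊕ Fin 2) F) :
    Matrix _ _ F) *ᵥ e2 F = e1 F := by
  have h11 : (-1 : F) = 1 := by
    rw [neg_eq_iff_add_eq_zero, one_add_one_eq_two, h2]
  rw [Units.val_mul, ← Matrix.mulVec_mulVec, U3_mulVec sf_e1_f2, U3_mulVec sf_e2_f1]
  simp only [sf_four]
  ext i
  rcases i with i | i <;> fin_cases i <;> simp [e1, e2, f1, f2, h11, one_add_one_eq_two, h2]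

theorem exists_rat_to_e1 (h2 : (2 : F) = 0) (F₀ : Subfield F) (j : Fin 2 ⊕ Fin 2) :
    ∃ w ∈ subfieldSubgroup F₀ (1 : GL (Fin 2 ⊕ Fin 2) F) ⊓ spGL 2 F,
      (w : Matrix _ _ F) *ᵥ Pi.single j 1 = e1 F := by
  have r1 : ∀ i, e1 F i ∈ F₀ := single_rat F₀ _
  have r2 : ∀ i, e2 F i ∈ F₀ := single_rat F₀ _
  have r3 : ∀ i, f1 F i ∈ F₀ := single_rat F₀ _
  have r4 : ∀ i, f2 F i ∈ F₀ := single_rat F₀ _
  have ho : U3 (e2 F) (f1 F) 0 1 0 * U3 (e1 F) (f2 F) 0 1 0 ∈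
      subfieldSubgroup F₀ (1 : GL (Fin 2 ⊕ Fin 2) F) ⊓ spGL 2 F :=
    mul_mem (U3_rat F₀ _ _ r2 r3 0 1 0 (zero_mem _) (one_mem _) (zero_mem _))
      (U3_rat F₀ _ _ r1 r4 0 1 0 (zero_mem _) (one_mem _) (zero_mem _))
  rcases j with j | j <;> fin_cases j
  · exact ⟨1, one_mem _, by rw [Units.val_one, Matrix.one_mulVec]; rfl⟩
  · exact ⟨_, ho, o_e2 h2⟩
  · exact ⟨_, mul_mem (mul_mem (tvG_rat' F₀ _ r1 1 (one_mem _)) (tvG_rat' F₀ _ r3 1 (one_mem _)))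
      (tvG_rat' F₀ _ r1 1 (one_mem _)), n1_f1⟩
  · refine ⟨_, mul_mem ho (mul_mem (mul_mem (tvG_rat' F₀ _ r2 1 (one_mem _))
      (tvG_rat' F₀ _ r4 1 (one_mem _))) (tvG_rat' F₀ _ r2 1 (one_mem _))), ?_⟩
    rw [Units.val_mul, ← Matrix.mulVec_mulVec]
    have h3 : ((tvG (e2 F) 1 * tvG (f2 F) 1 * tvG (e2 F) 1 : GL (Fin 2 ⊕ Fin 2) F) :
        Matrix (Fin 2 ⊕ Fin 2) (Fin 2 ⊕ Fin 2) F) *ᵥ
          (Pi.single (Sum.inr 1) 1 : Fin 2 ⊕ Fin 2 → F) = e2 F := n2_f2 (F := F)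
    exact (congrArg _ h3).trans (o_e2 h2)

end Cfsg.Agent.Lib.Helper70.SpRow
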