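import Cfsg.Agent.Lib.Helper70.SpRow.QTR

set_option autoImplicit false

namespace Cfsg.Agent.Lib.Helper70.SpRow

open Cfsg Cfsg.Geo Matrix Cfsg.Agent.Lib.Helper94.SpRow
open scoped MatrixGroups

variable {F : Type*} [Field F]

theorem sf_e1_e2 : sympForm 2 F (e1 F) (e2 F) = 0 := by
  rw [sf_four]; simp [e1, e2]

/-- a transvection with centre in the plane `⟨e1, e2⟩` -/
theorem tvG_plane (α γ c : F) :
    tvG (α • e1 F + γ • e2 F) c = U3 (e1 F) (e2 F) (c * α ^ 2) (c * α * γ) (c * γ ^ 2) := by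
  apply gl_ext
  intro x
  rw [tvG_mulVec, U3_mulVec sf_e1_e2, sf_add_right, sf_smul_right, sf_smul_right]
  module

theorem UU_all_of_comm (h2 : (2 : F) = 0) (h3 : ∃ c : F, c + c ^ 2 ≠ 0)
    (G : Subgroup (GL (Fin 2 ⊕ Fin 2) F)) (hL : ∀ x, LL G x)
    (hP3 : ∀ a c : F, LL G a → LL G c → UU G 0 (a * c) (a * c ^ 2)) : ∀ x y z, UU G x y z := by
  have hxx : ∀ x : F, x + x = 0 := fun x => by rw [← two_mul, h2, zero_mul]
  have hmul : ∀ x y z x' y' z' : F, UU G x y z → UU G x' y' z' → UU G (x + x') (y + y') (z + z') := by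
    intro x y z x' y' z' h h'
    have := G.mul_mem h h'
    rw [U3_mul sf_e1_e2] at this
    exact this
  have h0aa : ∀ a : F, UU G 0 a a := by
    intro a
    have := hP3 a 1 (hL a) (hL 1)
    simpa using this
  have hy : ∀ y : F, UU G 0 y 0 := by
    intro y
    obtain ⟨c, hc⟩ := h3
    have e1' := hmul _ _ _ _ _ _ (hP3 (y / (c + c ^ 2)) c (hL _) (hL c))
      (h0aa (y / (c + c ^ 2) * c ^ 2))
    rw [hxx (y / (c + c ^ 2) * c ^ 2), add_zero] at e1'
    have e2' : y / (c + c ^ 2) * c + y / (c + c ^ 2) * c ^ 2 = y := by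
      rw [← mul_add, div_mul_cancel₀ _ hc]
    rw [e2'] at e1'
    exact e1'
  have hx : ∀ x : F, UU G x 0 0 := by
    intro x
    have := hmul _ _ _ _ _ _ (hL x) (hy x)
    rw [hxx x, add_zero, add_zero] at this
    exact this
  have hz : ∀ z : F, UU G 0 0 z := by
    intro z
    have := hmul _ _ _ _ _ _ (h0aa z) (hy z)
    rw [hxx z, add_zero, add_zero] at this
    exact this
  intro x y z
  have := hmul _ _ _ _ _ _ (hmul _ _ _ _ _ _ (hx x) (hy y)) (hz z)
  simpa using this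

theorem n1_mulVec (h2 : (2 : F) = 0) (w : Fin 2 ⊕ Fin 2 → F) :
    ((tvG (e1 F) 1 * tvG (f1 F) 1 * tvG (e1 F) 1 : GL (Fin 2 ⊕ Fin 2) F) : Matrix _ _ F) *ᵥ w
      = w (Sum.inr 0) • e1 F + w (Sum.inl 1) • e2 F + w (Sum.inl 0) • f1 F + w (Sum.inr 1) • f2 F := by
  have h11 : (-1 : F) = 1 := by
    rw [neg_eq_iff_add_eq_zero, one_add_one_eq_two, h2]
  have hneg : ∀ x : F, -x = x := fun x => by rw [← neg_one_mul, h11, one_mul]
  have hxx : ∀ x : F, x + x = 0 := fun x => by rw [← two_mul, h2, zero_mul]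
  rw [Units.val_mul, Units.val_mul, ← Matrix.mulVec_mulVec, ← Matrix.mulVec_mulVec, tvG_mulVec,
    tvG_mulVec, tvG_mulVec]
  simp only [sf_four]
  ext i
  rcases i with i | i <;> fin_cases i <;> simp [e1, e2, f1, f2, hneg, hxx, sub_eq_add_neg]
  · linear_combination (w (Sum.inl 0) + w (Sum.inr 0)) * h2
  · linear_combination (w (Sum.inr 0)) * h2

theorem n2_mulVec (h2 : (2 : F) = 0) (w : Fin 2 ⊕ Fin 2 → F) :
    ((tvG (e2 F) 1 * tvG (f2 F) 1 * tvG (e2 F) 1 : GL (Fin 2 ⊕ Fin 2) F) : Matrix _ _ F) *ᵥ w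
      = w (Sum.inl 0) • e1 F + w (Sum.inr 1) • e2 F + w (Sum.inr 0) • f1 F + w (Sum.inl 1) • f2 F := by
  have h11 : (-1 : F) = 1 := by
    rw [neg_eq_iff_add_eq_zero, one_add_one_eq_two, h2]
  have hneg : ∀ x : F, -x = x := fun x => by rw [← neg_one_mul, h11, one_mul]
  have hxx : ∀ x : F, x + x = 0 := fun x => by rw [← two_mul, h2, zero_mul]
  rw [Units.val_mul, Units.val_mul, ← Matrix.mulVec_mulVec, ← Matrix.mulVec_mulVec, tvG_mulVec,
    tvG_mulVec, tvG_mulVec]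
  simp only [sf_four]
  ext i
  rcases i with i | i <;> fin_cases i <;> simp [e1, e2, f1, f2, hneg, hxx, sub_eq_add_neg]
  · linear_combination (w (Sum.inl 1) + w (Sum.inr 1)) * h2
  · linear_combination (w (Sum.inr 1)) * h2

/-- the vector with the given coordinates -/
def vec4 (a b c d : F) : Fin 2 ⊕ Fin 2 → F := a • e1 F + b • e2 F + c • f1 F + d • f2 F

theorem vec4_eta (w : Fin 2 ⊕ Fin 2 → F) :
    w = vec4 (w (Sum.inl 0)) (w (Sum.inl 1)) (w (Sum.inr 0)) (w (Sum.inr 1)) := by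
  ext i
  rcases i with i | i <;> fin_cases i <;> simp [vec4, e1, e2, f1, f2]

@[simp] theorem vec4_l0 (a b c d : F) : vec4 a b c d (Sum.inl 0) = a := by
  simp [vec4, e1, e2, f1, f2]
@[simp] theorem vec4_l1 (a b c d : F) : vec4 a b c d (Sum.inl 1) = b := by
  simp [vec4, e1, e2, f1, f2]
@[simp] theorem vec4_r0 (a b c d : F) : vec4 a b c d (Sum.inr 0) = c := by
  simp [vec4, e1, e2, f1, f2]
@[simp] theorem vec4_r1 (a b c d : F) : vec4 a b c d (Sum.inr 1) = d := by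
  simp [vec4, e1, e2, f1, f2]

theorem top_of_LL_all_core (h2 : (2 : F) = 0) (h3 : ∃ c : F, c + c ^ 2 ≠ 0) (F₀ : Subfield F)
    (G : Subgroup (GL (Fin 2 ⊕ Fin 2) F))
    (hHG : subfieldSubgroup F₀ (1 : GL (Fin 2 ⊕ Fin 2) F) ⊓ spGL 2 F ≤ G) (hGS : G ≤ spGL 2 F)
    (hL : ∀ x, LL G x)
    (hP3 : ∀ a c : F, LL G a → LL G c → UU G 0 (a * c) (a * c ^ 2)) : spGL 2 F ≤ G := by
  have hUU := UU_all_of_comm h2 h3 G hL hP3
  have r1 : ∀ i, e1 F i ∈ F₀ := single_rat F₀ _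
  have r2 : ∀ i, e2 F i ∈ F₀ := single_rat F₀ _
  have r3 : ∀ i, f1 F i ∈ F₀ := single_rat F₀ _
  have r4 : ∀ i, f2 F i ∈ F₀ := single_rat F₀ _
  have hn1 : tvG (e1 F) 1 * tvG (f1 F) 1 * tvG (e1 F) 1 ∈ G :=
    hHG (mul_mem (mul_mem (tvG_rat' F₀ _ r1 1 (one_mem _)) (tvG_rat' F₀ _ r3 1 (one_mem _)))
      (tvG_rat' F₀ _ r1 1 (one_mem _)))
  have hn2 : tvG (e2 F) 1 * tvG (f2 F) 1 * tvG (e2 F) 1 ∈ G :=
    hHG (mul_mem (mul_mem (tvG_rat' F₀ _ r2 1 (one_mem _)) (tvG_rat' F₀ _ r4 1 (one_mem _)))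
      (tvG_rat' F₀ _ r2 1 (one_mem _)))
  -- invariance
  have hinv : ∀ g ∈ G, ∀ w : Fin 2 ⊕ Fin 2 → F, (∀ c, tvG w c ∈ G) →
      ∀ c, tvG ((g : Matrix _ _ F) *ᵥ w) c ∈ G := by
    intro g hg w hw c
    rw [← tvG_conj (hGS hg)]
    exact mul_mem (mul_mem hg (hw c)) (inv_mem hg)
  have p12 : ∀ a b c : F, tvG (vec4 a b 0 0) c ∈ G := by
    intro a b c
    have : vec4 a b 0 0 = a • e1 F + b • e2 F := by simp [vec4]
    rw [this, tvG_plane]
    exact hUU _ _ _
  have p32 : ∀ a b c : F, tvG (vec4 0 b a 0) c ∈ G := by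
    intro a b
    have := hinv _ hn1 _ (p12 a b)
    rw [n1_mulVec h2] at this
    simp only [vec4_l0, vec4_l1, vec4_r0, vec4_r1] at this
    exact this
  have p14 : ∀ a b c : F, tvG (vec4 a 0 0 b) c ∈ G := by
    intro a b
    have := hinv _ hn2 _ (p12 a b)
    rw [n2_mulVec h2] at this
    simp only [vec4_l0, vec4_l1, vec4_r0, vec4_r1] at this
    exact this
  have p34 : ∀ a b c : F, tvG (vec4 0 0 a b) c ∈ G := by
    intro a b
    have := hinv _ hn2 _ (p32 a b)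
    rw [n2_mulVec h2] at this
    simp only [vec4_l0, vec4_l1, vec4_r0, vec4_r1] at this
    exact this
  -- step A
  have stepA : ∀ e w : Fin 2 ⊕ Fin 2 → F, (∀ c, tvG e c ∈ G) → sympForm 2 F w e ≠ 0 → ∀ l : F,
      (∀ c, tvG w c ∈ G) → ∀ c, tvG (w + l • e) c ∈ G := by
    intro e w he hne l hw
    have := hinv _ (he (l / sympForm 2 F w e)) _ hw
    rw [tvG_mulVec, div_mul_cancel₀ _ hne] at this
    exact this
  have he1 : ∀ c, tvG (e1 F) c ∈ G := by
    intro c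
    have := p12 1 0 c
    simpa [vec4] using this
  have he2 : ∀ c, tvG (e2 F) c ∈ G := by
    intro c
    have := p12 0 1 c
    simpa [vec4] using this
  have q1 : ∀ a b d c : F, tvG (vec4 a b 0 d) c ∈ G := by
    intro a b d
    by_cases hd : d = 0
    · subst hd; exact p12 a b
    · have := stepA (e2 F) (vec4 a 0 0 d) he2 (by rw [sf_four]; simpa [e2] using hd) b (p14 a d)
      have e : vec4 a 0 0 d + b • e2 F = vec4 a b 0 d := by
        simp only [vec4]; module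
      rwa [e] at this
  have q2 : ∀ b c' d c : F, tvG (vec4 0 b c' d) c ∈ G := by
    intro b c' d
    by_cases hd : d = 0
    · subst hd; exact p32 c' b
    · have := stepA (e2 F) (vec4 0 0 c' d) he2 (by rw [sf_four]; simpa [e2] using hd) b (p34 c' d)
      have e : vec4 0 0 c' d + b • e2 F = vec4 0 b c' d := by
        simp only [vec4]; module
      rwa [e] at this
  have q3 : ∀ a b c' d c : F, tvG (vec4 a b c' d) c ∈ G := by
    intro a b c' d
    by_cases hc : c' = 0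
    · subst hc; exact q1 a b d
    · have := stepA (e1 F) (vec4 0 b c' d) he1 (by rw [sf_four]; simpa [e1] using hc) a (q2 b c' d)
      have e : vec4 0 b c' d + a • e1 F = vec4 a b c' d := by
        simp only [vec4]; module
      rwa [e] at this
  refine spGL_le_of_tvG G fun w c => ?_
  rw [vec4_eta w]
  exact q3 _ _ _ _ c

end Cfsg.Agent.Lib.Helper70.SpRow
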