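import Cfsg.Agent.Lib.Helper45.SpSubWrap
import Cfsg.Agent.Lib.Helper44.SpConj
import Cfsg.Agent.Lib.Helper94.QuadWrap
import Cfsg.Agent.Lib.Helper94.SpRow.Defs4

set_option autoImplicit false

namespace Cfsg.Agent.Lib.Helper70.SpRow

open Cfsg Cfsg.Geo Matrix Cfsg.Agent.Lib.Helper94.SpRow Cfsg.Agent.Lib.Helper94
  Cfsg.Agent.Lib.Helper45.SpSub
open scoped MatrixGroups Pointwise

variable {F : Type*} [Field F]

theorem mem_spGL_of_single {m : ℕ} {g : GL (Fin m ⊕ Fin m) F}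
    (h : ∀ i j, sympForm m F ((g : Matrix _ _ F) *ᵥ Pi.single i 1)
      ((g : Matrix _ _ F) *ᵥ Pi.single j 1) = sympForm m F (Pi.single i 1) (Pi.single j 1)) :
    g ∈ spGL m F := by
  rw [mem_spGL_iff]
  have key : (sympB m F).comp (glEquiv _ F g).toLinearMap (glEquiv _ F g).toLinearMap
      = sympB m F := by
    apply LinearMap.BilinForm.ext_basis (Pi.basisFun F _)
    intro i j
    rw [LinearMap.BilinForm.comp_apply]
    simp only [LinearEquiv.coe_coe, Pi.basisFun_apply, glEquiv_apply, sympB_apply]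
    exact h i j
  intro u v
  conv_rhs => rw [← key]
  rfl

theorem Bq_isAlt' {m : ℕ} {F₀ : Subfield F} {ζ : F} {P : GL (Fin m ⊕ Fin m) F}
    (hP : IsFormRationalStructure (sympForm m F) F₀ ζ P) : (Bq hP).IsAlt := by
  intro u
  apply Subtype.ext
  rw [Bq_coe, Bz_isAlt ζ]
  rfl

theorem Bq_nondeg' {m : ℕ} {F₀ : Subfield F} {ζ : F} {P : GL (Fin m ⊕ Fin m) F} (hζ : ζ ≠ 0)
    (hP : IsFormRationalStructure (sympForm m F) F₀ ζ P) : (Bq hP).Nondegenerate := by
  have key : ∀ x, (∀ y, Bq hP x y = 0) → x = 0 := by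
    intro x hx
    have h0 : EE F₀ P x = 0 := by
      apply (Bz_nondegenerate hζ).1
      intro y
      have hy : y ∈ Submodule.span F (Set.range (EE F₀ P)) := span_EE F₀ P ▸ Submodule.mem_top
      induction hy using Submodule.span_induction with
      | mem z hz =>
        obtain ⟨z, rfl⟩ := hz
        rw [← Bq_coe hP, hx z]; rfl
      | zero => simp
      | add a b _ _ ha hb => rw [map_add, ha, hb, add_zero]
      | smul a b _ hb => rw [map_smul, hb, smul_zero]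
    apply EE_injective F₀ P
    rw [h0]
    unfold EE
    have : (fun i => (((0 : Fin m ⊕ Fin m → F₀) i : F₀) : F)) = 0 := rfl
    rw [this, Matrix.mulVec_zero]
  refine ⟨key, ?_⟩
  intro y hy
  apply key
  intro x
  rw [alt_swap (Bq_isAlt' hP), hy x, neg_zero]

theorem subfieldSubgroup_mul_right {ι : Type} [Fintype ι] [DecidableEq ι] (F₀ : Subfield F)
    (P γ : GL ι F)
    (hγ : γ ∈ (Matrix.GeneralLinearGroup.map (F₀.subtype : F₀ →+* F)).range ⊔ scalars ι F) :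
    subfieldSubgroup F₀ (P * γ) = subfieldSubgroup F₀ P := by
  unfold subfieldSubgroup
  have h1 : (MulAut.conj (P * γ)).toMonoidHom =
      (MulAut.conj P).toMonoidHom.comp (MulAut.conj γ).toMonoidHom := by
    ext1 x
    simp [mul_assoc]
  rw [h1, ← Subgroup.map_map]
  congr 1
  exact Subgroup.conj_smul_eq_self_of_mem hγ

theorem subfieldSubgroup_eq_map_one {ι : Type} [Fintype ι] [DecidableEq ι] (F₀ : Subfield F)
    (P : GL ι F) :
    subfieldSubgroup F₀ P = (subfieldSubgroup F₀ (1 : GL ι F)).map (MulAut.conj P).toMonoidHom := by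
  unfold subfieldSubgroup
  rw [Subgroup.map_map]
  congr 1
  ext1 x
  simp

theorem sf_coe (F₀ : Subfield F) (u v : Fin 2 ⊕ Fin 2 → F₀) :
    ((sympForm 2 F₀ u v : F₀) : F) = sympForm 2 F (fun i => (u i : F)) (fun i => (v i : F)) := by
  rw [sf_four, sf_four]
  push_cast
  ring

theorem subfield_normal_form [Fintype F] (h2 : (2 : F) = 0) (F₀ : Subfield F)
    (P : GL (Fin 2 ⊕ Fin 2) F) (ζ : F) (hζ : ζ ≠ 0)
    (hP : IsFormRationalStructure (sympForm 2 F) F₀ ζ P) :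
    ∃ P' ∈ spGL 2 F, subfieldSubgroup F₀ P =
      (subfieldSubgroup F₀ (1 : GL (Fin 2 ⊕ Fin 2) F)).map (MulAut.conj P').toMonoidHom := by
  obtain ⟨φ, hφ⟩ := Cfsg.Agent.Lib.Helper44.exists_alt_isometry (sympB 2 F₀) (Bq hP)
    (sympB_nondegenerate 2) (Bq_nondeg' hζ hP) (sympB_isAlt 2) (Bq_isAlt' hP) rfl
  have hchar : ringChar F = 2 := by
    have : CharP F 2 := CharTwo.of_one_ne_zero_of_two_eq_zero one_ne_zero h2
    exact ringChar.eq F 2
  obtain ⟨s, hs⟩ := exists_sq_of_charTwo hchar ζ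
  have hs0 : s ≠ 0 := by
    rintro rfl
    apply hζ
    rw [← hs]; simp
  set M₀ : GL (Fin 2 ⊕ Fin 2) F₀ := (glEquiv _ F₀).symm φ with hM₀
  have hM : ∀ x, (M₀ : Matrix _ _ F₀) *ᵥ x = φ x := by
    intro x
    rw [← glEquiv_apply, hM₀, MulEquiv.apply_symm_apply]
  set X₀ : GL (Fin 2 ⊕ Fin 2) F := Matrix.GeneralLinearGroup.map (F₀.subtype : F₀ →+* F) M₀ with hX₀
  set S : GL (Fin 2 ⊕ Fin 2) F :=
    Units.map (Matrix.scalar (Fin 2 ⊕ Fin 2) : F →+* Matrix _ _ F).toMonoidHom (Units.mk0 s hs0)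
    with hS
  have hγ : X₀ * S ∈ (Matrix.GeneralLinearGroup.map (F₀.subtype : F₀ →+* F)).range ⊔
      scalars (Fin 2 ⊕ Fin 2) F :=
    mul_mem (Subgroup.mem_sup_left ⟨M₀, rfl⟩) (Subgroup.mem_sup_right ⟨_, rfl⟩)
  refine ⟨P * (X₀ * S), ?_, ?_⟩
  · have hact : ∀ u : Fin 2 ⊕ Fin 2 → F₀,
        ((P * (X₀ * S) : GL (Fin 2 ⊕ Fin 2) F) : Matrix _ _ F) *ᵥ (fun i => (u i : F)) =
          s • EE F₀ P (φ u) := by
      intro u
      have h1 : (S : Matrix (Fin 2 ⊕ Fin 2) (Fin 2 ⊕ Fin 2) F) *ᵥ (fun i => (u i : F)) =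
          s • (fun i => (u i : F)) := by
        have : (S : Matrix (Fin 2 ⊕ Fin 2) (Fin 2 ⊕ Fin 2) F) = s • 1 := by
          simp [hS, Matrix.smul_one_eq_diagonal]
        rw [this, Matrix.smul_mulVec, Matrix.one_mulVec]
      have h3 : (X₀ : Matrix (Fin 2 ⊕ Fin 2) (Fin 2 ⊕ Fin 2) F) *ᵥ (fun i => (u i : F)) =
          fun i => ((φ u) i : F) := by
        funext i
        rw [← hM]
        exact ((F₀.subtype : F₀ →+* F).map_mulVec (M₀ : Matrix _ _ F₀) u i).symm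
      rw [Units.val_mul, Units.val_mul, ← Matrix.mulVec_mulVec, ← Matrix.mulVec_mulVec, h1,
        Matrix.mulVec_smul, Matrix.mulVec_smul, h3]
      rfl
    apply mem_spGL_of_single
    intro i j
    have hsingle : ∀ k : Fin 2 ⊕ Fin 2, (Pi.single k 1 : Fin 2 ⊕ Fin 2 → F) =
        fun i => (((Pi.single k 1 : Fin 2 ⊕ Fin 2 → F₀) i : F₀) : F) := by
      intro k
      funext l
      by_cases h : l = k
      · subst h; simp
      · simp [h]
    rw [hsingle i, hsingle j, hact, hact, sf_smul_left, sf_smul_right, ← sf_coe,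
      ← sympB_apply (F := F₀), ← hφ, Bq_coe, Bz_apply, ← hs]
    ring
  · rw [← subfieldSubgroup_eq_map_one, subfieldSubgroup_mul_right F₀ P _ hγ]

end Cfsg.Agent.Lib.Helper70.SpRow
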